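import Cfsg.Agent.H125.Hall.Defs
import Cfsg.Agent.H142.GmnPC
import Cfsg.Agent.FixBN.BRelative
import Cfsg.Agent.CpQuot.Congr
import Cfsg.Agent.Solvable.UniqueOrderP
import Cfsg.Agent.S3108

/-!
# HALLPRO T5 (helper541): application of S3108

`TQ.lie` : a component `L` normalised by `Q` and not centralised by `t`, such that the elements of `N(L)` which
centralise `t` modulo `C(L)` are in `C(t) C(L)`, is a group of Lie type in odd characteristic or `M11`, `M12` modulo its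
center.
-/

set_option autoImplicit false

namespace Cfsg.Agent.H541.Hall

open Subgroup Cfsg Cfsg.Agent.Cit Cfsg.Agent.H125.Hall

universe u

/-- a finite `2`-group with at most one involution which contains two non-commuting elements is generalized
quaternion -/
theorem quat_of_unique {P : Type*} [Group P] [Finite P] (hP : IsPGroup 2 P) (hu : ∀ x y : P, orderOf x = 2 →
    orderOf y = 2 → x = y) {a b : P} (hab : a * b ≠ b * a) :
    ∃ n : ℕ, Nonempty (P ≃* QuaternionGroup (2 ^ (n + 1))) := by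
  have : Fact (Nat.Prime 2) := ⟨Nat.prime_two⟩
  rcases Cfsg.Agent.Solvable.UniqueOrderP.cyclic_or_quaternion (p := 2) hP (by
    intro x y hx hx2 hy2
    by_cases hy : y = 1
    · rw [hy]
      exact one_mem _
    have h1 : x = y := hu x y (orderOf_eq_prime hx2 hx) (orderOf_eq_prime hy2 hy)
    rw [h1]
    exact mem_zpowers y) with h | ⟨-, m, hm, e⟩
  · exact absurd (IsCyclic.commutative.is_comm.comm a b) hab
  · obtain ⟨n, rfl⟩ := Nat.exists_eq_succ_of_ne_zero hm
    exact ⟨n, e⟩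

/-- a generalized quaternion group is not abelian -/
theorem isQ_not_comm {G : Type*} [Group G] {Q : Subgroup G} (h : AutQuat.IsQ Q) :
    ∃ a ∈ Q, ∃ b ∈ Q, a * b ≠ b * a := by
  obtain ⟨x, hx, hx4⟩ := AutQuat.IsQ.exists_four h
  obtain ⟨y, hy, hyx⟩ := AutQuat.IsQ.exists_inverts h x hx
  refine ⟨y, hy, x, hx, fun hc => ?_⟩
  have h1 : x = x⁻¹ := by
    rw [← hyx, hc]; group
  have h2 : x ^ 2 = 1 := by
    rw [sq]
    nth_rewrite 2 [h1]
    exact mul_inv_cancel x
  have h3 := orderOf_dvd_of_pow_eq_one h2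
  rw [hx4] at h3
  omega

section

variable {A : Type*} [Group A] [Finite A] {t : A} {Q K : Subgroup A} {L : Subgroup A}

/-- an element of even order has a power which is an involution; if `x ∈ K` then it is `t` -/
theorem TQ.exists_pow (h : TQ t Q K) {x : A} (hx : x ∈ K) (h2 : 2 ∣ orderOf x) : x ^ (orderOf x / 2) = t := by
  apply h.uniq _ (K.pow_mem hx _)
  have h0 : orderOf x ≠ 0 := (orderOf_pos x).ne'
  exact orderOf_pow_orderOf_div h0 h2

/-- **T5** -/
theorem TQ.lie (h : TQ t Q K) (hL : Cfsg.IsComponent L) (hQL : ∀ a ∈ Q, ∀ x ∈ L, a * x * a⁻¹ ∈ L)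
    (hnc : ¬ ∀ x ∈ L, t * x = x * t)
    (hc : ∀ g : A, (∀ x ∈ L, g * x * g⁻¹ ∈ L) → (∀ x ∈ L, (g * t * g⁻¹ * t⁻¹) * x = x * (g * t * g⁻¹ * t⁻¹)) →
      ∃ c : A, (∀ x ∈ L, c * x = x * c) ∧ (g * c) * t = t * (g * c)) : OddLieM (↥L ⧸ Subgroup.center ↥L) := by
  classical
  have : Fact (Nat.Prime 2) := ⟨Nat.prime_two⟩
  set N : Subgroup A := normalizer (L : Set A) with hN
  have memN : ∀ g : A, (∀ x ∈ L, g * x * g⁻¹ ∈ L) → g ∈ N := fun g hg =>
    mem_normalizer_fintype (S := (L : Set A)) hg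
  have hQN : Q ≤ N := fun a ha => memN a (hQL a ha)
  have htN : t ∈ N := hQN h.mem
  have hcN : ∀ c : A, (∀ x ∈ L, c * x = x * c) → c ∈ N := fun c hc => memN c fun x hx => by
    rw [hc x hx, mul_inv_cancel_right]; exact hx
  -- the homomorphism
  set φ : ↥N →* MulAut (↥L ⧸ center ↥L) := Cfsg.Agent.H142.GmnPC.act L with hφ
  have ker1 : ∀ y : ↥N, φ y = 1 → ∀ x ∈ L, (y : A) * x = x * y := by
    intro y hy x hx
    have h1 : (y : A) ∈ centralizer (L : Set A) := Cfsg.Agent.H142.GmnPC.mem_centralizer_of_act hL y.2 hy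
    exact (mem_centralizer_iff.1 h1 x hx).symm
  have ker2 : ∀ y : ↥N, (∀ x ∈ L, (y : A) * x = x * y) → φ y = 1 := by
    intro y hy
    ext x
    obtain ⟨x, rfl⟩ := QuotientGroup.mk_surjective x
    rw [hφ]
    show Cfsg.Agent.H142.GmnPC.act L y (x : ↥L ⧸ center ↥L) = (x : ↥L ⧸ center ↥L)
    rw [Cfsg.Agent.H142.GmnPC.act_mk]
    congr 1
    apply Subtype.ext
    show (y : A) * x * (y : A)⁻¹ = x
    rw [hy x x.2, mul_inv_cancel_right]
  set tN : ↥N := ⟨t, htN⟩ with htN'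
  have ht1 : φ tN ≠ 1 := fun h1 => hnc (ker1 tN h1)
  have ht2 : orderOf (φ tN) = 2 := by
    apply orderOf_eq_prime _ ht1
    rw [← map_pow]
    have : tN ^ 2 = 1 := Subtype.ext (by
      show t ^ 2 = 1
      rw [← h.ord]; exact pow_orderOf_eq_one t)
    rw [this, map_one]
  -- elements of `K ∩ N` which map to elements of order two
  have key : ∀ x : ↥N, (x : A) ∈ K → orderOf (φ x) = 2 → φ x = φ tN := by
    intro x hx hx2
    have h2 : 2 ∣ orderOf x := hx2 ▸ orderOf_map_dvd φ x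
    have h2' : 2 ∣ orderOf (x : A) := by rwa [orderOf_coe]
    have h3 := TQ.exists_pow h hx h2'
    rw [orderOf_coe] at h3
    have h4 : x ^ (orderOf x / 2) = tN := Subtype.ext h3
    have h5 : φ x ^ (orderOf x / 2) = φ tN := by rw [← map_pow, h4]
    rcases Nat.even_or_odd (orderOf x / 2) with he | ho
    · exfalso
      apply ht1
      rw [← h5]
      obtain ⟨m, hm⟩ := he
      rw [hm, ← two_mul, pow_mul, ← hx2, pow_orderOf_eq_one, one_pow]
    · rw [← h5]
      obtain ⟨m, hm⟩ := ho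
      have h6 : φ x ^ 2 = 1 := by rw [← hx2]; exact pow_orderOf_eq_one _
      rw [hm, pow_succ, pow_mul, h6, one_pow, one_mul]
  -- the subgroup of `φ.range`
  set X : Subgroup (MulAut (↥L ⧸ center ↥L)) := φ.range with hX
  set K' : Subgroup ↥N := K.subgroupOf N with hK'
  set Kb : Subgroup ↥X := K'.map φ.rangeRestrict with hKb
  have hfin : Finite ↥X := inferInstance
  set tb : ↥X := φ.rangeRestrict tN with htb
  have htb2 : orderOf tb = 2 := by
    rw [← orderOf_coe]; exact ht2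
  have htK : t ∈ K := h.le h.mem
  have htbK : tb ∈ Kb := ⟨tN, htK, rfl⟩
  have uniq : ∀ x ∈ Kb, orderOf x = 2 → x = tb := by
    rintro _ ⟨x, hx, rfl⟩ h2
    apply Subtype.ext
    exact key x hx (by rw [← orderOf_coe] at h2; exact h2)
  -- tight embedding
  have htight : Cfsg.IsTightlyEmbedded Kb := by
    refine ⟨?_, fun g hg => ?_⟩
    · have h1 : orderOf (⟨tb, htbK⟩ : ↥Kb) ∣ Nat.card ↥Kb := orderOf_dvd_natCard _
      rw [Subgroup.orderOf_mk, htb2] at h1
      exact even_iff_two_dvd.2 h1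
    · by_contra hodd
      rw [Nat.not_odd_iff_even, even_iff_two_dvd] at hodd
      obtain ⟨⟨y, hy⟩, hy2⟩ := exists_prime_orderOf_dvd_card' 2 hodd
      rw [Subgroup.orderOf_mk] at hy2
      obtain ⟨hy1, z, hz, hzy⟩ := hy
      have e1 : y = tb := uniq y hy1 hy2
      have hzy' : g * z * g⁻¹ = y := hzy
      have e2 : z = tb := by
        apply uniq z hz
        have h1 : orderOf (g * z * g⁻¹) = orderOf z :=
          orderOf_injective (MulAut.conj g).toMonoidHom (MulAut.conj g).injective z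
        rw [← h1, hzy', hy2]
      have e3 : g * tb * g⁻¹ = tb := by rw [← e2] at e1 ⊢; rw [hzy', e1]
      apply hg
      obtain ⟨⟨_, g0, rfl⟩, rfl⟩ : ∃ g' : ↥X, g' = g := ⟨g, rfl⟩
      -- `g0` centralises `t` modulo `C(L)`
      have e4 : φ (g0 * tN * g0⁻¹ * tN⁻¹) = 1 := by
        have h1 : φ g0 * φ tN * (φ g0)⁻¹ = φ tN := congrArg Subtype.val e3
        rw [map_mul, map_mul, map_mul, map_inv, map_inv, h1, mul_inv_cancel]
      obtain ⟨c, hcL, hct⟩ := hc (g0 : A) (fun x hx => (mem_normalizer_iff.1 g0.2 x).1 hx) (ker1 _ e4)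
      have hgc : ∀ y ∈ K, (g0 : A) * c * y * ((g0 : A) * c)⁻¹ ∈ K := h.norm _ hct
      set c' : ↥N := ⟨c, hcN c hcL⟩ with hc'
      have hφc : φ c' = 1 := ker2 c' hcL
      apply mem_normalizer_fintype
      rintro _ ⟨x, hx, rfl⟩
      refine ⟨(g0 * c') * x * (g0 * c')⁻¹, hgc x hx, ?_⟩
      apply Subtype.ext
      show φ (g0 * c' * x * (g0 * c')⁻¹) = φ g0 * φ x * (φ g0)⁻¹
      rw [map_mul, map_mul, map_inv, map_mul, hφc, mul_one]
  -- Sylow subgroups
  have hquat : ∀ S : Sylow 2 ↥Kb, ∃ n : ℕ, Nonempty (↥(S : Subgroup ↥Kb) ≃* QuaternionGroup (2 ^ (n + 1))) := by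
    intro S
    -- the image of `Q`
    obtain ⟨a, ha, b, hb, hab⟩ := isQ_not_comm h.isQ
    let aN : ↥N := ⟨a, hQN ha⟩
    let bN : ↥N := ⟨b, hQN hb⟩
    set Qb : Subgroup ↥Kb := (((Q.subgroupOf N).map φ.rangeRestrict).subgroupOf Kb) with hQb
    have hQp : IsPGroup 2 ↥((Q.subgroupOf N).map φ.rangeRestrict) := by
      have h1 : IsPGroup 2 ↥(Q.subgroupOf N) :=
        (AutQuat.IsQ.isPGroup h.isQ).of_equiv (subgroupOfEquivOfLe hQN).symm
      exact h1.map φ.rangeRestrict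
    have hQbp : IsPGroup 2 ↥Qb := by
      refine hQp.of_injective (subgroupOfEquivOfLe (H := (Q.subgroupOf N).map φ.rangeRestrict) (K := Kb) ?_).toMonoidHom
        (subgroupOfEquivOfLe _).injective
      exact map_mono (fun x hx => h.le hx)
    have haK : φ.rangeRestrict aN ∈ Kb := ⟨aN, h.le ha, rfl⟩
    have hbK : φ.rangeRestrict bN ∈ Kb := ⟨bN, h.le hb, rfl⟩
    set a' : ↥Kb := ⟨_, haK⟩ with ha'
    set b' : ↥Kb := ⟨_, hbK⟩ with hb'
    have ha'Q : a' ∈ Qb := ⟨aN, ha, rfl⟩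
    have hb'Q : b' ∈ Qb := ⟨bN, hb, rfl⟩
    have hab' : a' * b' ≠ b' * a' := by
      intro hcomm
      have h1 : φ (aN * bN * aN⁻¹ * bN⁻¹) = 1 := by
        have h2 : φ aN * φ bN = φ bN * φ aN :=
          congrArg (fun z : ↥Kb => ((z : ↥X) : MulAut (↥L ⧸ center ↥L))) hcomm
        rw [map_mul, map_mul, map_mul, map_inv, map_inv, h2]; group
      have h3 : a * b * a⁻¹ * b⁻¹ ∈ Q := Q.mul_mem (Q.mul_mem (Q.mul_mem ha hb) (Q.inv_mem ha)) (Q.inv_mem hb)
      have h4 : a * b * a⁻¹ * b⁻¹ ≠ 1 := by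
        intro h4
        apply hab
        calc a * b = a * b * a⁻¹ * b⁻¹ * (b * a) := by group
          _ = b * a := by rw [h4, one_mul]
      have h5 : 2 ∣ orderOf (a * b * a⁻¹ * b⁻¹) := by
        obtain ⟨k, hk⟩ := (IsPGroup.iff_orderOf.1 (AutQuat.IsQ.isPGroup h.isQ)) ⟨_, h3⟩
        rw [Subgroup.orderOf_mk] at hk
        rcases k with _ | k
        · rw [pow_zero, orderOf_eq_one_iff] at hk
          exact absurd hk h4
        · rw [hk]; exact dvd_pow_self 2 (Nat.succ_ne_zero k)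
      have h6 := TQ.exists_pow h (h.le h3) h5
      apply ht1
      have h7 : tN = (aN * bN * aN⁻¹ * bN⁻¹) ^ (orderOf (a * b * a⁻¹ * b⁻¹) / 2) := Subtype.ext h6.symm
      rw [h7, map_pow, h1, one_pow]
    obtain ⟨S', hS'⟩ := hQbp.exists_le_sylow
    obtain ⟨n, ⟨e⟩⟩ := quat_of_unique (P := ↥(S' : Subgroup ↥Kb)) S'.2 (by
      intro x y hx hy
      apply Subtype.ext
      apply Subtype.ext
      rw [uniq _ x.1.2 (by rw [orderOf_coe, orderOf_coe]; exact hx),
        uniq _ y.1.2 (by rw [orderOf_coe, orderOf_coe]; exact hy)])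
      (a := ⟨a', hS' ha'Q⟩) (b := ⟨b', hS' hb'Q⟩) (fun hcomm => hab' (congrArg Subtype.val hcomm))
    exact ⟨n, ⟨(S.equiv S').trans e⟩⟩
  -- the generalized Fitting subgroup
  have hsimple : IsSimpleGroup (↥L ⧸ center ↥L) := hL.2.2
  have hna : ¬ IsMulCommutative (↥L ⧸ center ↥L) := by
    intro hcomm
    have h1 : commutator (↥L ⧸ center ↥L) = ⊤ := by
      have h2 : commutator ↥L = ⊤ := hL.2.1.commutator_eq_top
      rw [_root_.commutator_def] at h2 ⊢
      have h3 := congrArg (Subgroup.map (QuotientGroup.mk' (center ↥L))) h2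
      rw [map_commutator, ← MonoidHom.range_eq_map, QuotientGroup.range_mk'] at h3
      exact h3
    have h4 : commutator (↥L ⧸ center ↥L) = ⊥ := by
      rw [eq_bot_iff, _root_.commutator_def, commutator_le]
      intro a _ b _
      rw [mem_bot, commutatorElement_eq_one_iff_mul_comm]
      exact hcomm.is_comm.comm a b
    rw [h4] at h1
    exact bot_ne_top h1
  have hrange : (MulAut.conj : (↥L ⧸ center ↥L) →* MulAut (↥L ⧸ center ↥L)).range ≤ X := by
    rintro _ ⟨x, rfl⟩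
    obtain ⟨x, rfl⟩ := QuotientGroup.mk_surjective x
    exact ⟨⟨x, le_normalizer x.2⟩, Cfsg.Agent.H142.GmnPC.act_of_mem L ⟨x, le_normalizer x.2⟩ x.2⟩
  obtain ⟨-, ⟨e⟩⟩ := Cfsg.Agent.FixBN.BRelative.genFitting_between hna hrange
  have h1 := Cfsg.Agent.S3108.result (G := ↥X) (Cfsg.Agent.FixBN.BRelative.simple_congr e hsimple)
    (Cfsg.Agent.FixBN.BRelative.not_comm_congr e hna) Kb htight hquat
  rcases h1 with ⟨p, hp, hp2, hl⟩ | ⟨⟨f⟩⟩ | ⟨⟨f⟩⟩
  · exact Or.inl ⟨p, hp, hp2, (Cfsg.Agent.CpQuot.Congr.isLieTypeChar_iff e p).2 hl⟩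
  · exact Or.inr (Or.inl ⟨e.trans f⟩)
  · exact Or.inr (Or.inr ⟨e.trans f⟩)

end

end Cfsg.Agent.H541.Hall
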