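import Cfsg.Agent.H541.Hall.E6Three
import Cfsg.Agent.H481.E6C.Final
import Cfsg.Agent.H442.Hall.E6Z2
import Cfsg.Agent.H405.Hall.E6Seven
import Cfsg.Agent.H361.Hall.E6FiveC
import Cfsg.Agent.H38.Hall.E6One
import Cfsg.Agent.H910.Hall.CoreB

/-!
# S2223: the rows of `E6(q)` and `²E6(q)`, closed (helper541)
-/

set_option autoImplicit false

namespace Cfsg.Agent.H541.Hall.E6Close

open Cfsg.Lie Cfsg.Agent.ChevalleyStructure.E6Min.Tables Cfsg.Agent.ChevalleyStructure.E6Min.Basic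
  Cfsg.Agent.ChevalleyStructure.E6Min.Torus Cfsg.Agent.H125.Hall Cfsg.Agent.H125.Hall.E6

theorem stC : H541.Hall.E6Three.StC := fun hp _ hG _ hk hy => H481.E6C.coreRow_c hp hG hk hy

theorem stF : H813.Hall.E6Three.StF := fun hq _ ht _ hr => H442.Hall.E6Z2.frame_mem_Z2 hq ht hr

theorem stT : H813.Hall.E6Three.StT := fun hc => H442.Hall.E6Z2.torus_mem_Z2 hc

theorem stB : H813.Hall.E6Three.StB := fun hp _ hG _ hk hv hw hy => H910.Hall.E6B.coreRow_b hp hG hk hv hw hy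

theorem coreRow_e6_one {F : Type} [Field F] [Fintype F] {p : ℕ} [Fact p.Prime] [CharP F p]
    (h4 : Fintype.card F % 4 = 1) : CoreRow p (Zgrp F) :=
  H38.Hall.E6One.coreRow_e6_one_of (fun _ hz _ hm hzm hr => H757.Hall.eq_one_of_rank hz hm hzm hr) h4

theorem coreRow_e6_three {F : Type} [Field F] [Fintype F] {p : ℕ} [Fact p.Prime] [CharP F p]
    (h8 : Fintype.card F % 8 = 3) : CoreRow p (Zgrp F) :=
  H541.Hall.E6Three.coreRow_e6_three_of stC h8

theorem coreRow_2e6_pm {F : Type} [Field F] [Fintype F] {p q : ℕ} [Fact p.Prime] [CharP F p]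
    (hq : Fintype.card F = q ^ 2) (h8 : q % 8 = 1 ∨ q % 8 = 7) : CoreRow p (Z2 F q) :=
  H405.Hall.E6Seven.coreRow_2e6_pm_of stF hq h8

theorem coreRow_2e6_three {F : Type} [Field F] [Fintype F] {p q : ℕ} [Fact p.Prime] [CharP F p]
    (hq : Fintype.card F = q ^ 2) (h8 : q % 8 = 3) : CoreRow p (Z2 F q) :=
  H813.Hall.E6Three.coreRow_2e6_three_of stB stF stT hq h8

theorem coreRow_2e6_five {F : Type} [Field F] [Fintype F] {p q : ℕ} [Fact p.Prime] [CharP F p]
    (hq : Fintype.card F = q ^ 2) (h8 : q % 8 = 5) : CoreRow p (Z2 F q) :=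
  H361.Hall.E6Five.coreRow_2e6_five_of' stF stT hq h8

end Cfsg.Agent.H541.Hall.E6Close
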